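import Cfsg.Agent.Lib.Helper57.OE.Base

set_option autoImplicit false

namespace Cfsg.Agent.Lib.Helper70.OE

open Cfsg Cfsg.Geo Matrix Cfsg.Agent.Lib.Helper13.Asch Cfsg.Agent.Lib.Helper90.Sp
open Cfsg.Agent.Lib.Helper57.OE
open scoped Kronecker MatrixGroups

variable {ι : Type} [Fintype ι] [DecidableEq ι] {F : Type*} [Field F] {Q : (ι → F) → F}

theorem finrank_iSup_of_indep {M : Type*} [AddCommGroup M] [Module F M]
    [FiniteDimensional F M] {t : ℕ} (V : Fin t → Submodule F M) (h : iSupIndep V) :
    Module.finrank F (⨆ i, V i : Submodule F M) = ∑ i, Module.finrank F (V i) := by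
  classical
  rw [Submodule.iSup_eq_range_dfinsupp_lsum,
    LinearMap.finrank_range_of_inj h.dfinsupp_lsum_injective]
  exact Module.finrank_directSum F (fun i => V i)

/-- a family of pairwise orthogonal totally singular subspaces spans a totally singular subspace -/
theorem singular_iSup (hQ : IsNondegenerateQuadraticForm Q) {t : ℕ}
    (U : Fin t → Submodule F (ι → F)) (hs : ∀ j, IsTotallySingularQuad Q (U j))
    (ho : ∀ j l, j ≠ l → ∀ x ∈ U j, ∀ y ∈ U l, QuadraticMap.polar Q x y = 0) :
    IsTotallySingularQuad Q (⨆ j, U j) := by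
  have hb := hQ.polar_bilinear
  have hp0 : ∀ j l, ∀ x ∈ U j, ∀ y ∈ U l, QuadraticMap.polar Q x y = 0 := by
    intro j l x hx y hy
    by_cases hjl : j = l
    · subst hjl
      unfold QuadraticMap.polar
      rw [hs j _ ((U j).add_mem hx hy), hs j x hx, hs j y hy]
      ring
    · exact ho j l hjl x hx y hy
  have hz : ∀ v, QuadraticMap.polar Q 0 v = 0 := by
    intro v
    have := hb.smul_left 0 0 v
    simpa using this
  have hz' : ∀ v, QuadraticMap.polar Q v 0 = 0 := by
    intro v
    rw [QuadraticMap.polar_comm]; exact hz v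
  have hp1 : ∀ l, ∀ y ∈ U l, ∀ x ∈ (⨆ j, U j), QuadraticMap.polar Q x y = 0 := by
    intro l y hy x hx
    refine Submodule.iSup_induction U (motive := fun x => QuadraticMap.polar Q x y = 0) hx
      (fun j x hx => hp0 j l x hx y hy) (hz y) ?_
    intro a b ha hb'
    rw [hb.add_left, ha, hb', add_zero]
  have hp2 : ∀ x ∈ (⨆ j, U j), ∀ y ∈ (⨆ j, U j), QuadraticMap.polar Q x y = 0 := by
    intro x hx y hy
    refine Submodule.iSup_induction U (motive := fun y => QuadraticMap.polar Q x y = 0) hy
      (fun l y hy => hp1 l y hy x hx) (hz' x) ?_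
    intro a b ha hb'
    rw [QuadraticMap.polar_comm, hb.add_left, QuadraticMap.polar_comm, ha,
      QuadraticMap.polar_comm, hb', add_zero]
  intro x hx
  refine Submodule.iSup_induction' U (motive := fun x _ => Q x = 0) (fun j x hx => hs j x hx)
    (Q_zero hQ) ?_ hx
  intro a b ha hb' h1 h2
  rw [Q_add Q a b, h1, h2, hp2 a ha b hb']
  ring

/-- P2 -/
theorem plus_of_plus_block (hQ : IsNondegenerateQuadraticForm Q) {t k : ℕ}
    (D : Fin t → Submodule F (ι → F)) (hD : IsOrthogonalMDecomposition Q k D) (i : Fin t)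
    (h : IsPlusTypeOn Q (D i)) : IsPlusTypeOn Q ⊤ := by
  obtain ⟨U₀, hU₀, hs₀, hdim₀⟩ := h
  have hiso := hD.isometric i
  choose φ hφ using hiso
  let U : Fin t → Submodule F (ι → F) := fun j =>
    (((U₀.comap (D i).subtype).map (φ j).toLinearMap).map (D j).subtype)
  have hUD : ∀ j, U j ≤ D j := fun j => Submodule.map_subtype_le _ _
  have hUs : ∀ j, IsTotallySingularQuad Q (U j) := by
    rintro j _ ⟨_, ⟨w, hw, rfl⟩, rfl⟩
    show Q ((φ j w : D j) : ι → F) = 0
    rw [hφ j w]
    exact hs₀ _ hw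
  have hUdim : ∀ j, Module.finrank F (U j) = Module.finrank F U₀ := by
    intro j
    show Module.finrank F (((U₀.comap (D i).subtype).map (φ j).toLinearMap).map (D j).subtype) = _
    rw [Submodule.finrank_map_subtype_eq, LinearEquiv.finrank_map_eq,
      (Submodule.comapSubtypeEquivOfLe hU₀).finrank_eq]
  have hind : iSupIndep U := hD.decomp.decomp.indep.mono hUD
  refine ⟨⨆ j, U j, le_top, ?_, ?_⟩
  · apply singular_iSup hQ U hUs
    intro j l hjl x hx y hy
    exact hD.decomp.orthogonal j l hjl x (hUD j hx) y (hUD l hy)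
  · rw [finrank_iSup_of_indep U hind, ← hD.decomp.decomp.iSup_eq_top,
      finrank_iSup_of_indep D hD.decomp.decomp.indep]
    simp only [hUdim, hD.decomp.decomp.finrank_eq, Finset.sum_const, Finset.card_univ,
      Fintype.card_fin, smul_eq_mul]
    rw [hD.decomp.decomp.finrank_eq] at hdim₀
    rw [← hdim₀]; ring

end Cfsg.Agent.Lib.Helper70.OE
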