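import Cfsg.Agent.Lib.Helper57.OE.Base
import Cfsg.Agent.Lib.Helper94.Tens

set_option autoImplicit false

namespace Cfsg.Agent.Lib.Helper70.OE

open Cfsg Cfsg.Geo Matrix Cfsg.Agent.Lib.Helper13.Asch Cfsg.Agent.Lib.Helper90.Sp
open Cfsg.Agent.Lib.Helper57.OE
open scoped Kronecker MatrixGroups

variable {ι : Type} [Fintype ι] [DecidableEq ι] {F : Type*} [Field F] {Q : (ι → F) → F}

/-- P4 -/
theorem plus_of_tensor_plus (h2 : (2 : F) ≠ 0) (hQ : IsNondegenerateQuadraticForm Q) {a b : ℕ}
    (e : ι ≃ Fin a × Fin b) (P : GL ι F) (f₁ : (Fin a → F) → (Fin a → F) → F)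
    (f₂ : (Fin b → F) → (Fin b → F) → F) (h1 : IsSymmetricForm f₁) (hf2 : IsSymmetricForm f₂)
    (hT : IsTensorFormStructure id (QuadraticMap.polar Q) f₁ f₂ e P)
    (hplus : IsPlusTypeOn (fun v : Fin b → F => f₂ v v) ⊤) : IsPlusTypeOn Q ⊤ := by
  classical
  obtain ⟨U₂, -, hs₂, hdim₂⟩ := hplus
  obtain ⟨c, hc, hT⟩ := hT
  have hb2 := hf2.bilinear
  have hpol : ∀ y ∈ U₂, ∀ y' ∈ U₂, f₂ y y' = 0 := by
    intro y hy y' hy'
    have h3 : f₂ (y + y') (y + y') = 0 := hs₂ (y + y') (U₂.add_mem hy hy')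
    have h4 : f₂ y y = 0 := hs₂ y hy
    have h5 : f₂ y' y' = 0 := hs₂ y' hy'
    rw [hb2.add_left, hb2.add_right, hb2.add_right, h4, h5, hf2.symm y' y] at h3
    have h6 : 2 * f₂ y y' = 0 := by linear_combination h3
    exact (mul_eq_zero.1 h6).resolve_left h2
  let Θ : (Fin a → U₂) →ₗ[F] (ι → F) :=
    { toFun := fun w =>
        (P : Matrix ι ι F) *ᵥ ((fun p : Fin a × Fin b => (w p.1 : Fin b → F) p.2) ∘ e)
      map_add' := fun w w' => by
        rw [← Matrix.mulVec_add]
        congr 1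
      map_smul' := fun r w => by
        rw [RingHom.id_apply, ← Matrix.mulVec_smul]
        congr 1 }
  have hΘ : ∀ w, Θ w =
      (P : Matrix ι ι F) *ᵥ ((fun p : Fin a × Fin b => (w p.1 : Fin b → F) p.2) ∘ e) := fun _ => rfl
  have hΘinj : Function.Injective Θ := by
    rw [← LinearMap.ker_eq_bot, LinearMap.ker_eq_bot']
    intro w hw
    rw [hΘ] at hw
    have h3 := congrArg (fun y => ((P⁻¹ : GL ι F) : Matrix ι ι F) *ᵥ y) hw
    simp only [Matrix.mulVec_mulVec, ← Units.val_mul, inv_mul_cancel, Units.val_one,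
      Matrix.one_mulVec, Matrix.mulVec_zero] at h3
    funext i
    apply Subtype.ext
    funext j
    have h4 := congrFun h3 (e.symm (i, j))
    simpa using h4
  refine ⟨LinearMap.range Θ, le_top, ?_, ?_⟩
  · rintro _ ⟨w, rfl⟩
    have h6 : QuadraticMap.polar Q (Θ w) (Θ w) = 0 := by
      rw [hΘ, hT]
      have h7 : ∀ i i', ∑ j, ∑ j', (w i : Fin b → F) j * gramMatrix f₂ j j' *
          (w i' : Fin b → F) j' = 0 := by
        intro i i'
        have h8 := Cfsg.Agent.Lib.Helper94.Tens.formOfGram_gram f₂ hb2 (w i : Fin b → F)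
          (w i' : Fin b → F)
        unfold formOfGram at h8
        simp only [id] at h8
        rw [h8]
        exact hpol _ (w i).2 _ (w i').2
      unfold formOfGram
      simp only [Fintype.sum_prod_type, Matrix.kroneckerMap_apply, id]
      rw [Finset.sum_eq_zero, mul_zero]
      intro i _
      rw [Finset.sum_comm]
      apply Finset.sum_eq_zero
      intro i' _
      have h9 : ∑ j, ∑ j', (w i : Fin b → F) j * (gramMatrix f₁ i i' * gramMatrix f₂ j j') *
          (w i' : Fin b → F) j' = gramMatrix f₁ i i' * ∑ j, ∑ j', (w i : Fin b → F) j *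
          gramMatrix f₂ j j' * (w i' : Fin b → F) j' := by
        simp only [Finset.mul_sum]
        refine Finset.sum_congr rfl fun j _ => Finset.sum_congr rfl fun j' _ => ?_
        ring
      rw [h9, h7, mul_zero]
    have h10 := two_mul_Q hQ (Θ w)
    rw [h6] at h10
    exact (mul_eq_zero.1 h10).resolve_left h2
  · rw [LinearMap.finrank_range_of_inj hΘinj, Module.finrank_pi_fintype, finrank_top,
      Module.finrank_fintype_fun_eq_card]
    rw [finrank_top, Module.finrank_fintype_fun_eq_card, Fintype.card_fin] at hdim₂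
    have hcard : Fintype.card ι = a * b := by
      rw [Fintype.card_congr e, Fintype.card_prod, Fintype.card_fin, Fintype.card_fin]
    simp only [Finset.sum_const, Finset.card_univ, Fintype.card_fin, smul_eq_mul]
    rw [hcard]
    calc 2 * (a * Module.finrank F ↥U₂) = a * (2 * Module.finrank F ↥U₂) := by ring
      _ = a * b := by rw [hdim₂]

end Cfsg.Agent.Lib.Helper70.OE
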