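import Cfsg.Agent.Lib.Helper57.OE.Defs

set_option autoImplicit false

namespace Cfsg.Agent.Lib.Helper70.OE

open Cfsg Cfsg.Geo Matrix Cfsg.Agent.Lib.Helper13.Asch Cfsg.Agent.Lib.Helper90.Sp
open Cfsg.Agent.Lib.Helper57.OE
open scoped Kronecker MatrixGroups

variable {ι : Type} [Fintype ι] [DecidableEq ι] {F : Type*} [Field F] {Q : (ι → F) → F}

/-- P4s -/
theorem tensorForm_swap {f : (ι → F) → (ι → F) → F} {a b : ℕ} {e : ι ≃ Fin a × Fin b} {P : GL ι F}
    {f₁ : (Fin a → F) → (Fin a → F) → F} {f₂ : (Fin b → F) → (Fin b → F) → F}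
    (h : IsTensorFormStructure id f f₁ f₂ e P) :
    IsTensorFormStructure id f f₂ f₁ (e.trans (Equiv.prodComm _ _)) P := by
  obtain ⟨c, hc, h⟩ := h
  refine ⟨c, hc, ?_⟩
  intro x y
  have h1 := h (x ∘ Equiv.prodComm _ _) (y ∘ Equiv.prodComm _ _)
  have e1 : x ∘ (e.trans (Equiv.prodComm _ _)) = (x ∘ Equiv.prodComm _ _) ∘ e := rfl
  have e2 : y ∘ (e.trans (Equiv.prodComm _ _)) = (y ∘ Equiv.prodComm _ _) ∘ e := rfl
  rw [e1, e2, h1]
  congr 1
  unfold formOfGram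
  rw [← Equiv.sum_comp (Equiv.prodComm (Fin a) (Fin b))]
  refine Finset.sum_congr rfl fun p _ => ?_
  rw [← Equiv.sum_comp (Equiv.prodComm (Fin a) (Fin b))]
  refine Finset.sum_congr rfl fun q _ => ?_
  simp only [Function.comp_apply, Matrix.kroneckerMap_apply, Equiv.prodComm_apply, Prod.fst_swap,
    Prod.snd_swap, id]
  ring

end Cfsg.Agent.Lib.Helper70.OE
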