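import Cfsg.Agent.Lib.Helper70.OE.P7a
import Cfsg.Agent.Lib.Helper70.OE.P2
import Cfsg.Agent.Lib.Helper99.Sp.T1
import Cfsg.Agent.Lib.Helper86.SURows.EBase

set_option autoImplicit false

namespace Cfsg.Agent.Lib.Helper70.OE

open Cfsg Cfsg.Geo Matrix Cfsg.Agent.Lib.Helper13.Asch Cfsg.Agent.Lib.Helper90.Sp
open Cfsg.Agent.Lib.Helper57.OE
open scoped Kronecker MatrixGroups

variable {ι : Type} [Fintype ι] [DecidableEq ι] {F : Type*} [Field F] {Q : (ι → F) → F}

theorem dot_gram {κ : Type} [Fintype κ] [DecidableEq κ] {f : (κ → F) → (κ → F) → F}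
    (hf : IsBilinearForm f) (x y : κ → F) : x ⬝ᵥ (gramMatrix f *ᵥ y) = f x y := by
  rw [← Cfsg.Agent.Lib.Helper94.Tens.formOfGram_gram f hf x y]
  simp only [formOfGram, dotProduct, Matrix.mulVec, id, Finset.mul_sum, mul_assoc]

theorem isUnit_det_gram {κ : Type} [Fintype κ] [DecidableEq κ] {f : (κ → F) → (κ → F) → F}
    (hf : IsSymmetricForm f) : IsUnit (gramMatrix f).det := by
  rw [isUnit_iff_ne_zero]
  intro h0
  obtain ⟨w, hw, hGw⟩ := Matrix.exists_mulVec_eq_zero_iff.2 h0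
  obtain ⟨x, hx⟩ := (hf.nondegenerate w hw).1
  apply hx
  rw [← dot_gram hf.bilinear, hGw, dotProduct_zero]

theorem pureV_add_right' {a b : ℕ} (e : ι ≃ Fin a × Fin b) (P : GL ι F) (x : Fin a → F)
    (y y' : Fin b → F) : pureV e P x (y + y') = pureV e P x y + pureV e P x y' := by
  unfold pureV
  rw [← Matrix.mulVec_add]
  congr 1
  ext i
  simp [mul_add]

theorem pureV_smul_left' {a b : ℕ} (e : ι ≃ Fin a × Fin b) (P : GL ι F) (c : F) (x : Fin a → F)
    (y : Fin b → F) : pureV e P (c • x) y = c • pureV e P x y := by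
  unfold pureV
  rw [← Matrix.mulVec_smul]
  congr 1
  ext i
  simp [mul_assoc]

theorem pureV_smul_right' {a b : ℕ} (e : ι ≃ Fin a × Fin b) (P : GL ι F) (c : F) (x : Fin a → F)
    (y : Fin b → F) : pureV e P x (c • y) = c • pureV e P x y := by
  unfold pureV
  rw [← Matrix.mulVec_smul]
  congr 1
  ext i
  simp [mul_left_comm]

theorem pureV_act {a b : ℕ} (e : ι ≃ Fin a × Fin b) (P : GL ι F) (x : Matrix (Fin a) (Fin a) F)
    (y : Matrix (Fin b) (Fin b) F) (u : Fin a → F) (w : Fin b → F) :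
    ((P : Matrix ι ι F) * Matrix.reindex e.symm e.symm (x ⊗ₖ y) *
      ((P⁻¹ : GL ι F) : Matrix ι ι F)) *ᵥ pureV e P u w = pureV e P (x *ᵥ u) (y *ᵥ w) := by
  unfold pureV
  rw [Cfsg.Agent.Lib.Helper99.Sp.conj_mulVec]
  congr 2
  ext p
  simp only [Matrix.mulVec, dotProduct, Fintype.sum_prod_type, Matrix.kroneckerMap_apply]
  rw [Finset.sum_mul_sum]
  refine Finset.sum_congr rfl fun i _ => Finset.sum_congr rfl fun j _ => ?_
  ring

/-- P7b -/
theorem rdec_of_tensor_three [Fintype F] [Nonempty ι] (hq : Fintype.card F = 3)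
    (hQ : IsNondegenerateQuadraticForm Q) {H : Subgroup (GL ι F)}
    (hH : FixesQuadForm (matrixSet H) Q) {b : ℕ} (hb : 0 < b) (e : ι ≃ Fin 3 × Fin b) (P : GL ι F)
    (f₁ : (Fin 3 → F) → (Fin 3 → F) → F) (f₂ : (Fin b → F) → (Fin b → F) → F)
    (h1 : IsSymmetricForm f₁) (h2 : IsSymmetricForm f₂)
    (hT : IsTensorFormStructure id (QuadraticMap.polar Q) f₁ f₂ e P)
    (hHt : H ≤ tensorProductSubgroup 3 b e P) :
    ∃ D : Fin 3 → Submodule F (ι → F), IsOrthogonalMDecomposition Q b D ∧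
      H ≤ decompositionStabilizer D := by
  classical
  obtain ⟨c', hc', hT⟩ := hT
  have h30 := Cfsg.Agent.Lib.Helper94.Tens.card3_three hq
  have h2ne : (2 : F) ≠ 0 := by
    intro h
    exact one_ne_zero (show (1 : F) = 0 by linear_combination h30 - h)
  have hbil := hQ.polar_bilinear
  have hTG : TensGram (QuadraticMap.polar Q) e P (c' • gramMatrix f₁) (gramMatrix f₂) := by
    intro x y
    rw [hT]
    unfold formOfGram
    rw [Finset.mul_sum]
    refine Finset.sum_congr rfl fun p _ => ?_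
    rw [Finset.mul_sum]
    refine Finset.sum_congr rfl fun p' _ => ?_
    simp only [Matrix.kroneckerMap_apply, Matrix.smul_apply, smul_eq_mul, id]
    ring
  have hs1 : (gramMatrix f₁)ᵀ = gramMatrix f₁ := by
    ext i j
    exact h1.symm _ _
  have hu1 : IsUnit (gramMatrix f₁).det := isUnit_det_gram h1
  have hu2 : IsUnit (gramMatrix f₂).det := isUnit_det_gram h2
  obtain ⟨B, c, hc, hBG, hmono⟩ := frame_three hq (gramMatrix f₁) hs1 hu1
  obtain ⟨v, hv⟩ : ∃ v : Fin 3 → (Fin 3 → F),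
      v = fun i => (B : Matrix (Fin 3) (Fin 3) F) *ᵥ Pi.single i 1 := ⟨_, rfl⟩
  have hvv : ∀ i j, v i ⬝ᵥ (gramMatrix f₁ *ᵥ v j) = if i = j then c else 0 := by
    intro i j
    rw [hv]
    simp only
    rw [dot_conj, hBG, Matrix.smul_mulVec, Matrix.one_mulVec, dotProduct_smul,
      single_one_dotProduct, Pi.single_apply, smul_eq_mul]
    by_cases hij : i = j
    · rw [if_pos hij, if_pos hij, mul_one]
    · rw [if_neg hij, if_neg hij, mul_zero]
  have hκ : c' * c ≠ 0 := mul_ne_zero hc' hc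
  have hform : ∀ i j y y', QuadraticMap.polar Q (pureV e P (v i) y) (pureV e P (v j) y') =
      if i = j then (c' * c) * f₂ y y' else 0 := by
    intro i j y y'
    rw [tensGram_pure hTG, Matrix.smul_mulVec, dotProduct_smul, hvv, dot_gram h2.bilinear]
    by_cases hij : i = j
    · rw [if_pos hij, if_pos hij, smul_eq_mul]
    · rw [if_neg hij, if_neg hij, smul_zero, zero_mul]
  let L : Fin 3 → (Fin b → F) →ₗ[F] (ι → F) := fun i =>
    { toFun := pureV e P (v i)
      map_add' := pureV_add_right' e P (v i)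
      map_smul' := fun r y => pureV_smul_right' e P r (v i) y }
  have hL : ∀ i y, L i y = pureV e P (v i) y := fun _ _ => rfl
  have hz : ∀ w, QuadraticMap.polar Q 0 w = 0 := by
    intro w
    have := hbil.smul_left 0 0 w
    simpa using this
  have hLinj : ∀ i, Function.Injective (L i) := by
    intro i
    rw [← LinearMap.ker_eq_bot, LinearMap.ker_eq_bot']
    intro y hy
    by_contra hy0
    obtain ⟨y', hy'⟩ := (h2.nondegenerate y hy0).2
    have h3 := hform i i y y'
    rw [← hL, hy, hz, if_pos rfl] at h3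
    exact mul_ne_zero hκ hy' h3.symm
  let D : Fin 3 → Submodule F (ι → F) := fun i => LinearMap.range (L i)
  have hnd : ∀ i, IsNondegenerateOn (QuadraticMap.polar Q) (D i) := by
    rintro i _ ⟨y, rfl⟩ h0
    have hy0 : y ≠ 0 := by
      rintro rfl
      exact h0 (map_zero _)
    obtain ⟨⟨x, hx⟩, ⟨x', hx'⟩⟩ := h2.nondegenerate y hy0
    refine ⟨⟨L i x, ⟨x, rfl⟩, ?_⟩, ⟨L i x', ⟨x', rfl⟩, ?_⟩⟩
    · rw [hL, hL, hform, if_pos rfl]; exact mul_ne_zero hκ hx
    · rw [hL, hL, hform, if_pos rfl]; exact mul_ne_zero hκ hx'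
  have horth : ∀ i j, i ≠ j → AreOrthogonalFor (QuadraticMap.polar Q) (D i) (D j) := by
    rintro i j hij _ ⟨y, rfl⟩ _ ⟨y', rfl⟩
    rw [hL, hL, hform, if_neg hij]
  have hindep : iSupIndep D := by
    intro i
    rw [Submodule.disjoint_def]
    intro x hx hx'
    let W : Submodule F (ι → F) :=
      { carrier := {x | ∀ y ∈ D i, QuadraticMap.polar Q x y = 0}
        add_mem' := fun {a b} ha hb y hy => by rw [hbil.add_left, ha y hy, hb y hy, add_zero]
        zero_mem' := fun y _ => hz y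
        smul_mem' := fun r a ha y hy => by rw [hbil.smul_left, ha y hy, mul_zero] }
    have hW : (⨆ j, ⨆ (_ : j ≠ i), D j) ≤ W :=
      iSup₂_le fun j hj a ha y hy => horth j i hj a ha y hy
    by_contra hx0
    obtain ⟨x', hx'D, hne⟩ := (hnd i x hx hx0).2
    exact hne (hW hx' x' hx'D)
  have hfin : ∀ i, Module.finrank F (D i) = b := by
    intro i
    show Module.finrank F (LinearMap.range (L i)) = b
    rw [LinearMap.finrank_range_of_inj (hLinj i), Module.finrank_fin_fun]
  have hcard : Fintype.card ι = 3 * b := by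
    rw [Fintype.card_congr e, Fintype.card_prod, Fintype.card_fin, Fintype.card_fin]
  have htop : iSup D = ⊤ := by
    apply Submodule.eq_top_of_finrank_eq
    rw [finrank_iSup_of_indep D hindep, Module.finrank_fintype_fun_eq_card, hcard]
    simp only [hfin, Finset.sum_const, Finset.card_univ, Fintype.card_fin, smul_eq_mul]
  have hdec : IsMDecomposition b D := ⟨by norm_num, hb, hfin, hindep, htop⟩
  have hQL : ∀ i j y, Q (L i y) = Q (L j y) := by
    intro i j y
    have h3 := two_mul_Q hQ (L i y)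
    have h4 := two_mul_Q hQ (L j y)
    rw [hL, hform, if_pos rfl] at h3
    rw [hL, hform, if_pos rfl, ← h3] at h4
    exact (mul_left_cancel₀ h2ne h4).symm
  refine ⟨D, ⟨⟨hdec, hnd, horth⟩, ?_⟩, ?_⟩
  · intro i j
    refine ⟨(LinearEquiv.ofInjective (L i) (hLinj i)).symm.trans
      (LinearEquiv.ofInjective (L j) (hLinj j)), ?_⟩
    intro w
    obtain ⟨y, hy⟩ : ∃ y, LinearEquiv.ofInjective (L i) (hLinj i) y = w :=
      (LinearEquiv.ofInjective (L i) (hLinj i)).surjective w
    rw [← hy, LinearEquiv.trans_apply, LinearEquiv.symm_apply_apply]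
    exact hQL j i y
  · intro h hh
    apply Cfsg.Agent.Lib.Helper86.SURows.mem_decStab_of_le hdec
    intro i
    have hu1' : IsUnit (c' • gramMatrix f₁).det := by
      rw [Matrix.det_smul]
      exact (isUnit_iff_ne_zero.2 (pow_ne_zero _ hc')).mul hu1
    obtain ⟨x, y, cu, hxy, hx1, -⟩ := Cfsg.Agent.Lib.Helper99.Sp.tens_similitude e P hTG hu1' hu2 h
      (hHt hh) (fun u w => fixesForm_polar hH _ ⟨h, hh, rfl⟩ u w)
    have hx1' : (x : Matrix (Fin 3) (Fin 3) F)ᵀ * gramMatrix f₁ * (x : Matrix (Fin 3) (Fin 3) F) =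
        (cu : F) • gramMatrix f₁ := by
      rw [Matrix.mul_smul, Matrix.smul_mul, smul_comm] at hx1
      exact smul_right_injective _ hc' hx1
    obtain ⟨j, s, -, hxv⟩ := hmono x cu hx1' i
    refine ⟨j, ?_⟩
    rintro _ ⟨_, ⟨w, rfl⟩, rfl⟩
    rw [Matrix.toLin'_apply, hL, hxy, pureV_act]
    have hxv' : (x : Matrix (Fin 3) (Fin 3) F) *ᵥ v i = s • v j := by
      rw [hv]; exact hxv
    rw [hxv', pureV_smul_left']
    exact (D j).smul_mem _ ⟨_, rfl⟩

end Cfsg.Agent.Lib.Helper70.OE
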