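import Cfsg.Agent.Lib.Helper57.OE.Base
import Cfsg.Agent.Lib.Helper94.TensF3

set_option autoImplicit false

namespace Cfsg.Agent.Lib.Helper70.OE

open Cfsg Cfsg.Geo Matrix Cfsg.Agent.Lib.Helper13.Asch Cfsg.Agent.Lib.Helper90.Sp
open Cfsg.Agent.Lib.Helper57.OE
open Cfsg.Agent.Lib.Helper94 (glEquiv glEquiv_apply)
open scoped Kronecker MatrixGroups

variable {F : Type*} [Field F]

/-- `(X u) ⬝ G (X v) = u ⬝ (Xᵀ G X) v` -/
theorem dot_conj {n : Type*} [Fintype n] (G X : Matrix n n F) (u v : n → F) :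
    (X *ᵥ u) ⬝ᵥ (G *ᵥ (X *ᵥ v)) = u ⬝ᵥ ((Xᵀ * G * X) *ᵥ v) := by
  rw [← Matrix.vecMul_transpose, ← Matrix.dotProduct_mulVec, Matrix.mulVec_mulVec,
    Matrix.mulVec_mulVec, Matrix.mul_assoc]

/-- P7a -/
theorem frame_three [Fintype F] (hq : Fintype.card F = 3) (G : Matrix (Fin 3) (Fin 3) F)
    (hs : Gᵀ = G) (hu : IsUnit G.det) :
    ∃ (B : GL (Fin 3) F) (c : F), c ≠ 0 ∧
      (B : Matrix (Fin 3) (Fin 3) F)ᵀ * G * (B : Matrix (Fin 3) (Fin 3) F) = c • 1 ∧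
      ∀ (x : GL (Fin 3) F) (μ : F),
        (x : Matrix (Fin 3) (Fin 3) F)ᵀ * G * (x : Matrix (Fin 3) (Fin 3) F) = μ • G →
        ∀ i, ∃ (j : Fin 3) (s : F), s ≠ 0 ∧
          (x : Matrix (Fin 3) (Fin 3) F) *ᵥ ((B : Matrix (Fin 3) (Fin 3) F) *ᵥ Pi.single i 1) =
            s • ((B : Matrix (Fin 3) (Fin 3) F) *ᵥ Pi.single j 1) := by
  classical
  have h3 := Cfsg.Agent.Lib.Helper94.Tens.card3_cases hq
  have h30 := Cfsg.Agent.Lib.Helper94.Tens.card3_three hq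
  have hdet : G.det ≠ 0 := hu.ne_zero
  obtain ⟨s, hsdef⟩ : ∃ s, s = Matrix.toBilin' G := ⟨_, rfl⟩
  have hsa : ∀ u v, s u v = u ⬝ᵥ (G *ᵥ v) := by
    intro u v; rw [hsdef, Matrix.toBilin'_apply']
  have hsym : ∀ u v, s u v = s v u := by
    intro u v
    rw [hsa, hsa, Matrix.dotProduct_mulVec, ← Matrix.mulVec_transpose, hs, dotProduct_comm]
  have hN : s.Nondegenerate := by
    rw [hsdef]; exact LinearMap.BilinForm.nondegenerate_toBilin'_iff_det_ne_zero.2 hdet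
  obtain ⟨w, ε, hε, hn, ho⟩ := Cfsg.Agent.Lib.Helper94.Tens.exists_equal_norm h3 h30 s hsym hN
    (by simp)
  let B₀ : Matrix (Fin 3) (Fin 3) F := Matrix.of (fun i j => w j i)
  have hB₀ : ∀ j, B₀ *ᵥ Pi.single j 1 = w j := by
    intro j
    rw [Matrix.mulVec_single_one]
    rfl
  have hBG : B₀ᵀ * G * B₀ = ε • 1 := by
    ext i j
    have h1 := dot_conj G B₀ (Pi.single i 1) (Pi.single j 1)
    rw [hB₀, hB₀, ← hsa, Matrix.mulVec_single_one, single_one_dotProduct, Matrix.col_apply] at h1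
    rw [← h1, Matrix.smul_apply, Matrix.one_apply, smul_eq_mul]
    by_cases hij : i = j
    · subst hij; rw [hn, if_pos rfl, mul_one]
    · rw [ho i j hij, if_neg hij, mul_zero]
  have hB₀u : IsUnit B₀ := by
    rw [Matrix.isUnit_iff_isUnit_det, isUnit_iff_ne_zero]
    intro h0
    have h1 := congrArg Matrix.det hBG
    rw [Matrix.det_mul, Matrix.det_mul, h0, mul_zero, Matrix.det_smul, Matrix.det_one, mul_one]
      at h1
    exact pow_ne_zero _ hε h1.symm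
  refine ⟨hB₀u.unit, ε, hε, hBG, ?_⟩
  intro x μ hx i
  show ∃ (j : Fin 3) (s : F), s ≠ 0 ∧ (x : Matrix (Fin 3) (Fin 3) F) *ᵥ (B₀ *ᵥ Pi.single i 1) =
    s • (B₀ *ᵥ Pi.single j 1)
  let wB : Module.Basis (Fin 3) F (Fin 3 → F) :=
    (Pi.basisFun F (Fin 3)).map (glEquiv (Fin 3) F hB₀u.unit)
  have hwB : ∀ j, wB j = w j := by
    intro j
    show glEquiv (Fin 3) F hB₀u.unit (Pi.basisFun F (Fin 3) j) = w j
    rw [glEquiv_apply, Pi.basisFun_apply]
    exact hB₀ j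
  have hμ : μ ≠ 0 := by
    rintro rfl
    have h1 := congrArg Matrix.det hx
    rw [zero_smul, Matrix.det_mul, Matrix.det_mul, Matrix.det_transpose, Matrix.det_zero] at h1
    have hxd : (x : Matrix (Fin 3) (Fin 3) F).det ≠ 0 :=
      ((Matrix.isUnit_iff_isUnit_det _).1 x.isUnit).ne_zero
    exact mul_ne_zero (mul_ne_zero hxd hdet) hxd h1
  obtain ⟨j, c, hc⟩ := Cfsg.Agent.Lib.Helper94.Tens.simil_frame h3 h30 s wB ε hε
    (fun i => by rw [hwB, hn]) (fun i j hij => by rw [hwB, hwB, ho i j hij])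
    (glEquiv (Fin 3) F x) μ hμ (fun u v => by
      rw [glEquiv_apply, glEquiv_apply, hsa, hsa, dot_conj, hx, Matrix.smul_mulVec,
        dotProduct_smul, smul_eq_mul]) i
  rw [glEquiv_apply, hwB, hwB] at hc
  refine ⟨j, c, ?_, by rw [hB₀, hB₀, hc]⟩
  rintro rfl
  rw [zero_smul] at hc
  have h1 := congrArg (fun y => ((x⁻¹ : GL (Fin 3) F) : Matrix (Fin 3) (Fin 3) F) *ᵥ y) hc
  simp only [Matrix.mulVec_mulVec, ← Units.val_mul, inv_mul_cancel, Units.val_one,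
    Matrix.one_mulVec, Matrix.mulVec_zero] at h1
  have h2 := hn i
  rw [h1] at h2
  simp at h2
  exact hε h2.symm

end Cfsg.Agent.Lib.Helper70.OE
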